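import Mathlib
import Cfsg.Agent.Isaacs.Jordan
import Cfsg.Agent.Char.Constit

/-! Blichfeldt's sixty degree theorem, in the form needed for simple groups. -/

set_option autoImplicit false

open scoped ComplexConjugate Matrix

namespace Cfsg.Agent.LinP

open Cfsg Cfsg.Agent.Char Subgroup

section mat
variable {n : Type*} [Fintype n] [DecidableEq n]

omit [DecidableEq n] in
theorem re_trace_nonneg (y : Matrix n n ℂ) : 0 ≤ (yᴴ * y).trace.re := by
  simp only [Matrix.trace, Matrix.diag, Matrix.mul_apply, Matrix.conjTranspose_apply, Complex.re_sum]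
  refine Finset.sum_nonneg fun i _ => Finset.sum_nonneg fun j _ => ?_
  rw [Complex.star_def, ← Complex.normSq_eq_conj_mul_self]
  simpa using Complex.normSq_nonneg _

omit [DecidableEq n] in
theorem eq_zero_of_re_trace {y : Matrix n n ℂ} (h : (yᴴ * y).trace.re ≤ 0) : y = 0 := by
  simp only [Matrix.trace, Matrix.diag, Matrix.mul_apply, Matrix.conjTranspose_apply, Complex.re_sum,
    Complex.star_def, ← Complex.normSq_eq_conj_mul_self, Complex.ofReal_re] at h
  have h0 := le_antisymm h (Finset.sum_nonneg fun i _ => Finset.sum_nonneg fun j _ =>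
    Complex.normSq_nonneg _)
  rw [Finset.sum_eq_zero_iff_of_nonneg fun i _ => Finset.sum_nonneg fun j _ =>
    Complex.normSq_nonneg _] at h0
  ext j i
  have := (Finset.sum_eq_zero_iff_of_nonneg fun j _ => Complex.normSq_nonneg (y j i)).1
    (h0 i (Finset.mem_univ _)) j (Finset.mem_univ _)
  exact Complex.normSq_eq_zero.1 this

omit [DecidableEq n] in
theorem re_trace_conjTranspose (y : Matrix n n ℂ) : yᴴ.trace.re = y.trace.re := by
  rw [Matrix.trace_conjTranspose]; simp

variable {s P : Matrix n n ℂ}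

theorem blich_lt (hs : sᴴ * s = 1) (hP : P * P = P) (hP' : Pᴴ = P) (hsP : s * P = P)
    (hpos : ∀ y : Matrix n n ℂ, (yᴴ * y).trace.re ≤ 2 * (yᴴ * s * y).trace.re)
    {t : Matrix n n ℂ} (ht : tᴴ * t = 1) (hne : t * P ≠ P * t * P) :
    (P * t * P).trace.re < (P * (tᴴ * s * t) * P).trace.re := by
  have hPs : P * s = P := by
    have h1 : sᴴ * P = P := by rw [← hsP, ← Matrix.mul_assoc, hs, Matrix.one_mul, hsP]
    simpa [hP'] using congrArg Matrix.conjTranspose h1
  set A := P * t * P with hA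
  set y := t * P - A with hy
  have a1 : P * A = A := by rw [hA, ← Matrix.mul_assoc, ← Matrix.mul_assoc, hP]
  have a2 : P * y = 0 := by rw [hy, Matrix.mul_sub, a1, ← Matrix.mul_assoc, sub_self]
  have a3 : yᴴ * P = 0 := by simpa [hP'] using congrArg Matrix.conjTranspose a2
  have a4 : Aᴴ * P = Aᴴ := by simpa [hP'] using congrArg Matrix.conjTranspose a1
  have a5 : s * A = A := by rw [← a1, ← Matrix.mul_assoc, hsP]
  have a6 : Aᴴ * s = Aᴴ := by rw [← a4, Matrix.mul_assoc, hPs]
  have a7 : Aᴴ * y = 0 := by rw [← a4, Matrix.mul_assoc, a2, Matrix.mul_zero]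
  have a8 : yᴴ * A = 0 := by rw [← a1, ← Matrix.mul_assoc, a3, Matrix.zero_mul]
  have e : t * P = A + y := by rw [hy]; abel
  have b1 : P * (tᴴ * s * t) * P = Aᴴ * A + yᴴ * s * y := by
    have : P * (tᴴ * s * t) * P = (t * P)ᴴ * s * (t * P) := by simp [hP', Matrix.mul_assoc]
    rw [this, e]
    simp only [Matrix.conjTranspose_add, Matrix.add_mul, Matrix.mul_add, a6, a7, Matrix.mul_assoc _ s A,
      a5, a8, add_zero, zero_add]
  have b2 : P = Aᴴ * A + yᴴ * y := by
    have : (t * P)ᴴ * (t * P) = P := by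
      rw [Matrix.conjTranspose_mul, hP', Matrix.mul_assoc, ← Matrix.mul_assoc _ t, ht, Matrix.one_mul, hP]
    rw [← this, e]
    simp only [Matrix.conjTranspose_add, Matrix.add_mul, Matrix.mul_add, a7, a8, add_zero, zero_add]
  have b3 : (A - P)ᴴ * (A - P) = Aᴴ * A - Aᴴ - A + P := by
    simp only [Matrix.conjTranspose_sub, Matrix.sub_mul, Matrix.mul_sub, hP', a1, a4, hP]; abel
  have c1 := congrArg (fun X : Matrix n n ℂ => X.trace.re) b2
  have c2 := congrArg (fun X : Matrix n n ℂ => X.trace.re) b3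
  have c3 := hpos y
  simp only [Matrix.trace_add, Matrix.trace_sub, Complex.add_re, Complex.sub_re,
    re_trace_conjTranspose] at c1 c2
  rw [b1, Matrix.trace_add, Complex.add_re]
  by_contra hc
  have c4 : A - P = 0 := eq_zero_of_re_trace (by linarith)
  rw [sub_eq_zero] at c4
  have c5 : (Aᴴ * A).trace.re = P.trace.re := by rw [c4, hP', hP]
  exact hne (sub_eq_zero.1 (eq_zero_of_re_trace (y := y) (by linarith)))

theorem blich_stab (hP : P * P = P) (hP' : Pᴴ = P)
    (hpos : ∀ y : Matrix n n ℂ, (yᴴ * y).trace.re ≤ 2 * (yᴴ * s * y).trace.re)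
    (hpoly : ∀ Q : Matrix n n ℂ, Q = Q * Q → s * Q = Q * s * Q → P * Q = Q * P * Q)
    {v t : Matrix n n ℂ} (hv : vᴴ * v = 1) (ht : tᴴ * t = 1) (htv : t = vᴴ * s * v)
    (h : tᴴ * s * t * P = P * (tᴴ * s * t) * P) : t * P = P * t * P := by
  have ht' : t * tᴴ = 1 := mul_eq_one_comm.1 ht
  have h1 := hpoly (t * P * tᴴ) (by
    simp only [Matrix.mul_assoc]
    rw [← Matrix.mul_assoc tᴴ, ht, Matrix.one_mul, ← Matrix.mul_assoc P, hP]) (by
    calc s * (t * P * tᴴ) = t * (tᴴ * s * t * P) * tᴴ := by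
          simp only [← Matrix.mul_assoc, ht', Matrix.one_mul]
      _ = _ := by rw [h]; simp only [Matrix.mul_assoc])
  have h2 : tᴴ * P * t * P = P * (tᴴ * P * t * P) := by
    have := congrArg (fun X => tᴴ * X * t) h1
    simp only [← Matrix.mul_assoc, ht, Matrix.one_mul] at this
    simp only [Matrix.mul_assoc, ht, Matrix.mul_one] at this
    simpa only [Matrix.mul_assoc] using this
  set z := P - tᴴ * P * t * P with hz
  have h3 : P * z = z := by rw [hz, Matrix.mul_sub, hP, ← h2]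
  have h4 : t * z = t * P - P * t * P := by
    rw [hz, Matrix.mul_sub]; simp only [← Matrix.mul_assoc, ht', Matrix.one_mul]
  have h5 : zᴴ * P = zᴴ := by simpa [hP'] using congrArg Matrix.conjTranspose h3
  have h6 : zᴴ * t * z = 0 := by
    rw [Matrix.mul_assoc, h4, ← h5, Matrix.mul_assoc, Matrix.mul_sub]
    simp only [← Matrix.mul_assoc, hP, sub_self, Matrix.mul_zero]
  have h7 := hpos (v * z)
  have h8 : (v * z)ᴴ * s * (v * z) = 0 := by
    rw [← h6, htv]; simp only [Matrix.conjTranspose_mul, Matrix.mul_assoc]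
  have h9 : (v * z)ᴴ * (v * z) = zᴴ * z := by
    rw [Matrix.conjTranspose_mul, Matrix.mul_assoc, ← Matrix.mul_assoc _ v, hv, Matrix.one_mul]
  rw [h8, h9] at h7
  have h10 : z = 0 := eq_zero_of_re_trace (by simpa using h7)
  rw [h10, Matrix.mul_zero] at h4
  exact sub_eq_zero.1 h4.symm

theorem blich_core {ι : Type*} [Finite ι] (v : ι → Matrix n n ℂ) (hv : ∀ i, (v i)ᴴ * v i = 1)
    (hs : sᴴ * s = 1) (hP : P * P = P) (hP' : Pᴴ = P) (hsP : s * P = P)
    (hpos : ∀ y : Matrix n n ℂ, (yᴴ * y).trace.re ≤ 2 * (yᴴ * s * y).trace.re)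
    (hpoly : ∀ Q : Matrix n n ℂ, Q = Q * Q → s * Q = Q * s * Q → P * Q = Q * P * Q)
    (hcl : ∀ i, ∃ j, (v j)ᴴ * s * v j = ((v i)ᴴ * s * v i)ᴴ * s * ((v i)ᴴ * s * v i)) (i : ι) :
    (v i)ᴴ * s * v i * P = P * ((v i)ᴴ * s * v i) * P := by
  by_contra hc
  have hu : ∀ i, ((v i)ᴴ * s * v i)ᴴ * ((v i)ᴴ * s * v i) = 1 := fun i => by
    have h1 : v i * (v i)ᴴ = 1 := mul_eq_one_comm.1 (hv i)
    simp only [Matrix.conjTranspose_mul, Matrix.conjTranspose_conjTranspose, Matrix.mul_assoc]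
    rw [← Matrix.mul_assoc (v i), h1, Matrix.one_mul, ← Matrix.mul_assoc sᴴ, hs, Matrix.one_mul, hv]
  obtain ⟨k, hk, hm⟩ := Set.exists_max_image
    {i | (v i)ᴴ * s * v i * P ≠ P * ((v i)ᴴ * s * v i) * P}
    (fun i => (P * ((v i)ᴴ * s * v i) * P).trace.re) (Set.toFinite _) ⟨i, hc⟩
  obtain ⟨j, hj⟩ := hcl k
  have h1 := blich_lt hs hP hP' hsP hpos (hu k) hk
  refine hk (blich_stab hP hP' hpos hpoly (hv k) (hu k) rfl ?_)
  rw [← hj] at h1 ⊢
  by_contra h2
  exact absurd (hm j h2) (not_le.2 h1)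

end mat

section proj
variable {n : Type*} [Fintype n] [DecidableEq n] {K : Type*} [Group K] [Fintype K]

/-- The projection onto the `ψ`-eigenspace. -/
noncomputable def eigProj (U : K →* Matrix n n ℂ) (ψ : K → ℂ) : Matrix n n ℂ :=
  (Nat.card K : ℂ)⁻¹ • ∑ k, conj (ψ k) • U k

theorem lin_conj_mul (l : K →* ℂˣ) (k : K) : conj (l k : ℂ) * l k = 1 := by
  rw [Complex.conj_mul', linear_norm]; simp

theorem lin_inv (l : K →* ℂˣ) (k : K) : (l k⁻¹ : ℂ) = conj (l k : ℂ) := by
  rw [map_inv, Units.val_inv_eq_inv_val]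
  exact (eq_inv_of_mul_eq_one_left (lin_conj_mul l k)).symm

theorem mul_eigProj (U : K →* Matrix n n ℂ) (l : K →* ℂˣ) (x : K) :
    U x * eigProj U (fun k => l k) = (l x : ℂ) • eigProj U (fun k => l k) := by
  rw [eigProj, Matrix.mul_smul, smul_comm (l x : ℂ), Finset.mul_sum]
  congr 1
  rw [Finset.smul_sum]
  refine Fintype.sum_equiv (M := Matrix n n ℂ) (Equiv.mulLeft x) _ _ fun k => ?_
  simp only [Equiv.coe_mulLeft, map_mul, Units.val_mul, Matrix.mul_smul, smul_smul]
  rw [← mul_assoc, mul_comm (l x : ℂ), lin_conj_mul, one_mul]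

theorem eigProj_idem (U : K →* Matrix n n ℂ) (l : K →* ℂˣ) :
    eigProj U (fun k => l k) * eigProj U (fun k => l k) = eigProj U (fun k => l k) := by
  conv_lhs => lhs; rw [eigProj]
  rw [Matrix.smul_mul, Finset.sum_mul]
  simp only [Matrix.smul_mul, mul_eigProj, smul_smul, lin_conj_mul, one_smul, Finset.sum_const,
    Finset.card_univ, ← Nat.card_eq_fintype_card]
  rw [← Nat.cast_smul_eq_nsmul ℂ, smul_smul, inv_mul_cancel₀ (by exact_mod_cast Nat.card_pos.ne'),
    one_smul]

theorem eigProj_herm {U : K →* Matrix n n ℂ} (hU : ∀ k, (U k)ᴴ = U k⁻¹) (l : K →* ℂˣ) :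
    (eigProj U (fun k => l k))ᴴ = eigProj U (fun k => l k) := by
  rw [eigProj, Matrix.conjTranspose_smul, Matrix.conjTranspose_sum]
  congr 1
  · simp
  refine Fintype.sum_equiv (Equiv.inv K) _ _ fun k => ?_
  simp only [Matrix.conjTranspose_smul, hU, Equiv.inv_apply, lin_inv]
  simp

theorem trace_eigProj (U : K →* Matrix n n ℂ) (ψ : K → ℂ) :
    (eigProj U ψ).trace = classInner (fun k => (U k).trace) ψ := by
  simp [eigProj, classInner, Matrix.trace_sum, mul_comm]

theorem sum_eigProj [IsMulCommutative K] (U : K →* Matrix n n ℂ) :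
    ∑ ψ : IrrCharacter K, eigProj U ψ = 1 := by
  classical
  simp only [eigProj, ← Finset.smul_sum]
  rw [Finset.sum_comm]
  simp only [← Finset.sum_smul]
  rw [Finset.sum_eq_single 1 (fun k _ hk => ?_) (by simp)]
  · have h := sum_irr_one_sq (G := K)
    simp only [isIrr_degree_one_of_comm (Subtype.prop _), one_pow] at h
    simp only [isIrr_degree_one_of_comm (Subtype.prop _), map_one, h, smul_smul]
    rw [inv_mul_cancel₀ (by exact_mod_cast Nat.card_pos.ne'), one_smul]
  · have h := congrArg conj (sum_irr_one_mul_of_ne hk)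
    simp only [isIrr_degree_one_of_comm (Subtype.prop _), one_mul, map_sum, map_zero] at h
    rw [h, zero_smul]

theorem eigProj_eq_zero {U : K →* Matrix n n ℂ} (hU : ∀ k, (U k)ᴴ = U k⁻¹) (l : K →* ℂˣ)
    (h : classInner (fun k => (U k).trace) (fun k => l k) = 0) : eigProj U (fun k => l k) = 0 :=
  eq_zero_of_re_trace (by rw [eigProj_herm hU, eigProj_idem, trace_eigProj, h]; simp)

theorem pos_of_eig [IsMulCommutative K] {U : K →* Matrix n n ℂ} (hU : ∀ k, (U k)ᴴ = U k⁻¹) (g : K)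
    (α : ℂ) (h : ∀ ψ : IrrCharacter K, classInner (fun k => (U k).trace) ψ ≠ 0 →
      1 ≤ 2 * (α * ψ.1 g).re) (y : Matrix n n ℂ) :
    (yᴴ * y).trace.re ≤ 2 * (yᴴ * (α • U g) * y).trace.re := by
  have e1 : yᴴ * y = ∑ ψ : IrrCharacter K, yᴴ * eigProj U ψ * y := by
    rw [← Finset.sum_mul, ← Finset.mul_sum, sum_eigProj, Matrix.mul_one]
  have e2 : yᴴ * (α • U g) * y = ∑ ψ : IrrCharacter K, yᴴ * ((α • U g) * eigProj U ψ) * y := by
    rw [← Finset.sum_mul, ← Finset.mul_sum, ← Finset.mul_sum, sum_eigProj, Matrix.mul_one]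
  rw [e1, e2, Matrix.trace_sum, Matrix.trace_sum, Complex.re_sum, Complex.re_sum, Finset.mul_sum]
  refine Finset.sum_le_sum fun ψ _ => ?_
  obtain ⟨l, hl⟩ := isIrr_linear_of_comm ψ.2
  by_cases h0 : classInner (fun k => (U k).trace) ψ = 0
  · rw [hl] at h0 ⊢
    simp [eigProj_eq_zero hU l h0]
  have h1 := h ψ h0
  rw [hl] at h1 ⊢
  set E := eigProj U fun k => (l k : ℂ)
  have h2 : yᴴ * E * y = (E * y)ᴴ * (E * y) := by
    rw [Matrix.conjTranspose_mul, eigProj_herm hU, Matrix.mul_assoc, Matrix.mul_assoc,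
      ← Matrix.mul_assoc E, eigProj_idem]
  have h3 : (yᴴ * E * y).trace.im = 0 := by
    have : (yᴴ * E * y)ᴴ = yᴴ * E * y := by rw [h2]; simp [Matrix.mul_assoc]
    have := congrArg Matrix.trace this
    rw [Matrix.trace_conjTranspose] at this
    exact Complex.conj_eq_iff_im.1 this
  have h4 := re_trace_nonneg (E * y)
  rw [← h2] at h4
  rw [Matrix.smul_mul, mul_eigProj, smul_smul, Matrix.mul_smul, Matrix.smul_mul, Matrix.trace_smul,
    smul_eq_mul, Complex.mul_re, h3]
  nlinarith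

end proj

/-- **Blichfeldt**: in a non-abelian simple group, no eigenvalue of a nonidentity element has all
the other eigenvalues within sixty degrees. -/
theorem blich_simple {G : Type*} [Group G] [Fintype G] [IsSimpleGroup G]
    (hna : ∃ a b : G, a * b ≠ b * a) {χ : G → ℂ} (hχ : IsCharacter G χ)
    (h1 : classInner χ (fun _ => 1) = 0) (K : Subgroup G) [IsMulCommutative K] [Fintype K] (g : K)
    (hg : g ≠ 1) (hK : ∀ k : K, ∃ m : ℕ, k = g ^ m) (ψ₀ : IrrCharacter K)
    (h : ∀ ψ : IrrCharacter K, classInner (fun k : K => χ k) ψ ≠ 0 →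
      1 ≤ 2 * (conj (ψ₀.1 g) * ψ.1 g).re) : classInner (fun k : K => χ k) ψ₀ = 0 := by
  obtain ⟨n, U, hU, htr⟩ := Isaacs.exists_unitary hχ
  have u1 : ∀ x, (U x)ᴴ * U x = 1 := fun x => (hU x).1
  have u2 : ∀ x, (U x)ᴴ = U x⁻¹ := fun x => by
    rw [← Matrix.mul_one (U x)ᴴ, ← map_one U, ← mul_inv_cancel x, map_mul, ← Matrix.mul_assoc, u1,
      Matrix.one_mul]
  obtain ⟨l, hl⟩ := isIrr_linear_of_comm ψ₀.2
  set V := U.comp K.subtype
  have v2 : ∀ k, (V k)ᴴ = V k⁻¹ := fun k => u2 k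
  have hV : (fun k => (V k).trace) = fun k : K => χ k := funext fun k => htr k
  set P := eigProj V fun k => (l k : ℂ) with hPd
  have hP : P * P = P := eigProj_idem V l
  have hP' : Pᴴ = P := eigProj_herm v2 l
  set α : ℂ := conj (l g : ℂ)
  have hα : conj α * α = 1 := by rw [mul_comm]; simpa [α] using lin_conj_mul l g
  have hα0 : α ≠ 0 := right_ne_zero_of_mul_eq_one hα
  have key := blich_core (s := α • V g) (P := P) U u1
    (by rw [Matrix.conjTranspose_smul, Matrix.smul_mul, Matrix.mul_smul, smul_smul]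
        exact by rw [show (V g)ᴴ * V g = 1 from u1 g, Complex.star_def, hα, one_smul])
    hP hP' (by rw [Matrix.smul_mul, mul_eigProj, smul_smul, lin_conj_mul, one_smul])
    (pos_of_eig v2 g α (by rw [hV]; simpa only [hl] using h))
    (fun Q hQQ hQ => by
      have a : V g * Q = Q * V g * Q := by
        rw [Matrix.smul_mul, Matrix.mul_smul, Matrix.smul_mul] at hQ
        exact smul_right_injective _ hα0 hQ
      have b : ∀ k, V k * Q = Q * V k * Q := fun k => by
        obtain ⟨m, rfl⟩ := hK k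
        induction m with
        | zero => simpa using hQQ
        | succ m ih =>
          rw [pow_succ, map_mul, Matrix.mul_assoc, a, ← Matrix.mul_assoc, ← Matrix.mul_assoc, ih]
          simp only [Matrix.mul_assoc]
          rw [← Matrix.mul_assoc Q (V g), ← a]
      simp only [hPd, eigProj, Matrix.smul_mul, Matrix.mul_smul, Finset.sum_mul, Finset.mul_sum, ← b])
    (fun x => ⟨x⁻¹ * g * x, by
      simp only [Matrix.mul_smul, Matrix.smul_mul, Matrix.conjTranspose_smul, smul_smul,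
        Matrix.conjTranspose_mul, u2, V, MonoidHom.comp_apply, ← map_mul, coe_subtype]
      rw [Complex.star_def, mul_comm α (conj α), hα, mul_one]⟩)
  have k1 : ∀ x, U (x⁻¹ * g * x) * P = P * U (x⁻¹ * g * x) * P := fun x => by
    have := key x
    simp only [Matrix.mul_smul, Matrix.smul_mul, u2, V, MonoidHom.comp_apply, ← map_mul,
      coe_subtype] at this
    exact smul_right_injective _ hα0 this
  let S : Submonoid G :=
    { carrier := {x | U x * P = P * U x * P}
      one_mem' := by simp [hP]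
      mul_mem' := fun {a b} (ha : _ = _) (hb : _ = _) => by
        change U (a * b) * P = P * U (a * b) * P
        rw [map_mul, Matrix.mul_assoc, hb, ← Matrix.mul_assoc, ← Matrix.mul_assoc, ha]
        simp only [Matrix.mul_assoc]
        rw [← Matrix.mul_assoc P (U b), ← hb] }
  have k2 : ∀ x, U x * P = P * U x * P := fun x => by
    have a : normalClosure {(g : G)} = ⊤ :=
      (IsSimpleGroup.eq_bot_or_eq_top_of_normal _ normalClosure_normal).resolve_left fun e =>
        hg (Subtype.ext (mem_bot.1 (e ▸ subset_normalClosure rfl)))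
    have b : (normalClosure {(g : G)}).toSubmonoid ≤ S := by
      rw [normalClosure, closure_toSubmonoid_of_finite, Submonoid.closure_le]
      intro y hy
      obtain ⟨_, rfl, c⟩ := Group.mem_conjugatesOfSet_iff.1 hy
      obtain ⟨d, rfl⟩ := isConj_iff.1 c
      have := k1 d⁻¹
      rwa [inv_inv] at this
    exact b (a ▸ mem_top x : x ∈ normalClosure {(g : G)})
  have k3 : ∀ x, U x * P = P * U x := fun x => by
    have := congrArg Matrix.conjTranspose (k2 x⁻¹)
    simp only [Matrix.conjTranspose_mul, hP', u2, inv_inv] at this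
    rw [k2, Matrix.mul_assoc, ← this]
  let N : Subgroup G :=
    { carrier := {x | U x * P = P}
      one_mem' := by simp
      mul_mem' := fun {a b} (ha : _ = _) (hb : _ = _) => by
        change U (a * b) * P = P
        rw [map_mul, Matrix.mul_assoc, hb, ha]
      inv_mem' := fun {a} (ha : _ = _) => by
        change U a⁻¹ * P = P
        rw [← ha, ← Matrix.mul_assoc, ← map_mul, inv_mul_cancel, map_one, Matrix.one_mul, ha] }
  have hN : N.Normal := ⟨fun a (ha : _ = _) x => by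
    change U (x * a * x⁻¹) * P = P
    rw [map_mul, map_mul, Matrix.mul_assoc, k3, Matrix.mul_assoc, ← Matrix.mul_assoc (U a), ha, ← k3,
      ← Matrix.mul_assoc, ← map_mul, mul_inv_cancel, map_one, Matrix.one_mul]⟩
  have k4 : ∀ x, x⁻¹ * g * x * (g : G)⁻¹ ∈ N := fun x => by
    change U _ * P = P
    have a : U g * P = (l g : ℂ) • P := mul_eigProj V l g
    have b : U (g : G)⁻¹ * P = (l g⁻¹ : ℂ) • P := mul_eigProj V l g⁻¹
    rw [map_mul, map_mul, map_mul, Matrix.mul_assoc, b, Matrix.mul_smul, Matrix.mul_assoc, k3,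
      Matrix.mul_assoc, ← Matrix.mul_assoc (U g), a, Matrix.smul_mul, Matrix.mul_smul, ← k3,
      ← Matrix.mul_assoc, ← map_mul, inv_mul_cancel, map_one, Matrix.one_mul, smul_smul, lin_inv,
      lin_conj_mul, one_smul]
  have k5 : N = ⊤ := (IsSimpleGroup.eq_bot_or_eq_top_of_normal _ hN).resolve_left fun e => by
    have a : (g : G) ∈ center G := mem_center_iff.2 fun x => by
      have := mem_bot.1 (e ▸ k4 x)
      rw [mul_inv_eq_one, mul_assoc, inv_mul_eq_iff_eq_mul] at this
      exact this.symm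
    rcases IsSimpleGroup.eq_bot_or_eq_top_of_normal (center G) inferInstance with c | c
    · exact hg (Subtype.ext (mem_bot.1 (c ▸ a)))
    · obtain ⟨x, y, hxy⟩ := hna
      exact hxy (mem_center_iff.1 (c ▸ mem_top y) x)
  have k6 := eigProj_eq_zero u2 1 (by simpa [htr] using h1)
  have k7 : eigProj U (fun k => ((1 : G →* ℂˣ) k : ℂ)) * P = P := by
    have a : ∀ x, U x * P = P := fun x => (k5 ▸ mem_top x : x ∈ N)
    rw [eigProj, Matrix.smul_mul, Finset.sum_mul]
    simp only [MonoidHom.one_apply, Units.val_one, map_one, one_smul, a, Finset.sum_const,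
      Finset.card_univ, ← Nat.card_eq_fintype_card]
    rw [← Nat.cast_smul_eq_nsmul ℂ, smul_smul, inv_mul_cancel₀ (by exact_mod_cast Nat.card_pos.ne'),
      one_smul]
  rw [k6, Matrix.zero_mul] at k7
  rw [← hV, ← trace_eigProj, hl, ← hPd, ← k7, Matrix.trace_zero]

theorem exists_six : ∃ f : ℂ → Fin 6, ∀ z w : ℂ, ‖z‖ = 1 → ‖w‖ = 1 → f z = f w →
    1 ≤ 2 * (z⁻¹ * w).re := by
  have p := Real.pi_pos
  have n : ∀ z : ℂ, 0 ≤ (Real.pi - z.arg) / (Real.pi / 3) := fun z =>
    div_nonneg (sub_nonneg.mpr z.arg_le_pi) (by positivity)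
  refine ⟨fun z => ⟨⌊(Real.pi - z.arg) / (Real.pi / 3)⌋₊, (Nat.floor_lt (n z)).mpr ?_⟩,
    fun z w a b c => ?_⟩
  · rw [div_lt_iff₀ (by positivity)]; push_cast; linarith [z.neg_pi_lt_arg]
  have d := Nat.floor_le (n z)
  have e := Nat.lt_floor_add_one ((Real.pi - z.arg) / (Real.pi / 3))
  have f := Nat.floor_le (n w)
  have g := Nat.lt_floor_add_one ((Real.pi - w.arg) / (Real.pi / 3))
  rw [← Fin.mk.inj c] at f g
  rw [le_div_iff₀ (by positivity)] at d f
  rw [div_lt_iff₀ (by positivity)] at e g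
  have h : |w.arg - z.arg| ≤ Real.pi / 3 := abs_le.mpr ⟨by linarith, by linarith⟩
  have k := Real.cos_le_cos_of_nonneg_of_le_pi (abs_nonneg _) (by linarith) h
  rw [Real.cos_abs, Real.cos_pi_div_three, ← Complex.exp_ofReal_mul_I_re, Complex.ofReal_sub, sub_mul,
    Complex.exp_sub, show Complex.exp (w.arg * Complex.I) = w by
    simpa [b] using w.norm_mul_exp_arg_mul_I, show Complex.exp (z.arg * Complex.I) = z by
    simpa [a] using z.norm_mul_exp_arg_mul_I, div_eq_inv_mul w] at k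
  linarith

/-- An element of prime order `p` of a simple group with `r` distinct eigenvalues has
`p ≤ 6 ^ (r - 1)`. -/
theorem prime_le_six_pow {G : Type*} [Group G] [Fintype G] [IsSimpleGroup G]
    (hna : ∃ a b : G, a * b ≠ b * a) {χ : G → ℂ} (hχ : IsCharacter G χ)
    (h1 : classInner χ (fun _ => 1) = 0) (K : Subgroup G) [Fintype K] {p : ℕ} [Fact p.Prime]
    (hK : Nat.card K = p) (T : Finset (IrrCharacter K))
    (hT : ∀ ψ, ψ ∈ T ↔ classInner (fun k : K => χ k) ψ.1 ≠ 0) (hne : T.Nonempty) :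
    p ≤ 6 ^ (T.card - 1) := by
  classical
  have := isCyclic_of_prime_card hK
  obtain ⟨ψ₀, h0⟩ := hne
  obtain ⟨f, hf⟩ := exists_six
  by_contra hc
  obtain ⟨x, y, hxy, e⟩ := Fintype.exists_ne_map_eq_of_card_lt
    (fun (k : K) (ψ : T.erase ψ₀) => f (conj (ψ₀.1 k) * ψ.1.1 k)) (by
      rw [Fintype.card_fun, Fintype.card_fin, Fintype.card_coe, Finset.card_erase_of_mem h0,
        ← Nat.card_eq_fintype_card, hK]
      exact not_le.1 hc)
  have hg : x⁻¹ * y ≠ 1 := fun h => hxy (inv_mul_eq_one.1 h)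
  refine (hT ψ₀).1 h0 (blich_simple hna hχ h1 K (x⁻¹ * y) hg (fun k => ?_) ψ₀ fun ψ hψ => ?_)
  · obtain ⟨m, hm⟩ := mem_powers_of_prime_card hK hg (g' := k)
    exact ⟨m, hm.symm⟩
  obtain ⟨l, hl⟩ := isIrr_linear_of_comm ψ₀.2
  by_cases a : ψ = ψ₀
  · rw [a, hl, lin_conj_mul]; simp
  obtain ⟨μ, hμ⟩ := isIrr_linear_of_comm ψ.2
  have b := hf _ _ (by simp [hl, hμ, linear_norm]) (by simp [hl, hμ, linear_norm])
    (congrFun e ⟨ψ, Finset.mem_erase.2 ⟨a, (hT ψ).2 hψ⟩⟩)
  simp only [hl, hμ, ← lin_inv] at b ⊢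
  convert b using 3
  simp only [map_mul, map_inv, mul_inv_rev, inv_inv, Units.val_mul, Units.val_inv_eq_inv_val]
  ring

end Cfsg.Agent.LinP
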